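import Cfsg.Agent.H50.M22Outer.EllipticData
import Cfsg.Agent.H97.M22.OMinusSix

/-!
The listed matrices on the sixty-four vectors generate the orthogonal group of the elliptic form,
which has no nontrivial normal subgroup of two-power order.
-/

set_option autoImplicit false
set_option maxRecDepth 100000

namespace Cfsg.Agent.H50.M22Outer.EllMat

open Matrix Cfsg
open Cfsg.Agent.H97.M22 (qSix OSix card_OSix)

/-- the coordinates -/
abbrev Ix : Type := (Fin 2 ⊕ Fin 2) ⊕ Fin 2

/-- the vectors -/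
abbrev Vec : Type := Ix → ZMod 2

/-- the coordinate of a bit -/
def ixOf : ℕ → Ix
  | 0 => .inl (.inl 0)
  | 1 => .inl (.inl 1)
  | 2 => .inl (.inr 0)
  | 3 => .inl (.inr 1)
  | 4 => .inr 0
  | _ => .inr 1

/-- the bit of a coordinate -/
def bitIx : Ix → ℕ
  | .inl (.inl i) => i
  | .inl (.inr i) => 2 + i
  | .inr i => 4 + i

/-- the coordinates present in a code -/
def supp (n : ℕ) : List Ix :=
  ((List.range 6).filter fun k => n.testBit k).map ixOf

/-- the vector of a code -/
def vecN (n : ℕ) : Vec := ((supp n).map fun i => Pi.single i 1).sum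

theorem vecN_inj : ∀ a : Fin 64, ∀ b : Fin 64, (∀ i, vecN a i = vecN b i) → a = b := by
  decide +kernel

theorem vecN_bijective : Function.Bijective fun a : Fin 64 => vecN a := by
  rw [Fintype.bijective_iff_injective_and_card]
  exact ⟨fun a b h => vecN_inj a b fun i => congrFun h i, by simp⟩

theorem exists_code (v : Vec) : ∃ n, n < 64 ∧ vecN n = v := by
  obtain ⟨a, rfl⟩ := vecN_bijective.2 v
  exact ⟨a, a.2, rfl⟩

/-- the image of a code under the columns -/
def mvN (M : List ℕ) (n : ℕ) : ℕ :=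
  ((List.range 6).filter fun k => n.testBit k).foldl (fun a k => a ^^^ M.getD k 0) 0

/-- the matrix with the given columns -/
def matOf (M : List ℕ) : Matrix Ix Ix (ZMod 2) :=
  Matrix.of fun r c => vecN (M.getD (bitIx c) 0) r

/-- the columns give an isometry -/
def MatOK (M : List ℕ) : Prop :=
  ∀ n : Fin 64, (∀ r, (matOf M *ᵥ vecN n) r = vecN (mvN M n) r) ∧ mvN M n < 64 ∧
    qSix (vecN (mvN M n)) = qSix (vecN n)

theorem MatOK.mulVec {M : List ℕ} (h : MatOK M) {n : ℕ} (hn : n < 64) :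
    matOf M *ᵥ vecN n = vecN (mvN M n) := funext (h ⟨n, hn⟩).1

theorem MatOK.isom {M : List ℕ} (h : MatOK M) (v : Vec) : qSix (matOf M *ᵥ v) = qSix v := by
  obtain ⟨n, hn, rfl⟩ := exists_code v
  rw [h.mulVec hn]
  exact (h ⟨n, hn⟩).2.2

theorem chainMats_ok : ∀ k : Fin chainMats.length, MatOK (chainMats.getD k []) := by
  unfold MatOK
  decide +kernel

theorem extra_ok : ∀ k : Fin extraGens.length, MatOK (extraGens.getD k ([], [])).2 := by
  unfold MatOK
  decide +kernel

/-! ### The group on the vectors -/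

/-- the action -/
def act (g : OSix) (v : Vec) : Vec :=
  ((g : GL Ix (ZMod 2)) : Matrix Ix Ix (ZMod 2)) *ᵥ v

theorem act_one (v : Vec) : act 1 v = v := by simp [act]

theorem act_mul (g h : OSix) (v : Vec) : act (g * h) v = act g (act h v) := by
  simp [act, Matrix.mulVec_mulVec]

theorem act_inv_eq {g : OSix} {v w : Vec} (h : act g v = w) : act g⁻¹ w = v := by
  rw [← h, ← act_mul, inv_mul_cancel, act_one]

theorem act_ext {g h : OSix} (e : ∀ v, act g v = act h v) : g = h := by
  refine Subtype.ext (Units.ext ?_)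
  exact Matrix.toLin'.injective (LinearMap.ext fun v => by
    rw [Matrix.toLin'_apply, Matrix.toLin'_apply]; exact e v)

theorem act_q (g : OSix) (v : Vec) : qSix (act g v) = qSix v := g.2 v v

theorem act_add (g : OSix) (v w : Vec) : act g (v + w) = act g v + act g w :=
  Matrix.mulVec_add _ v w

theorem act_zero (g : OSix) : act g 0 = 0 := Matrix.mulVec_zero _

/-- the elements fixing the listed vectors -/
def fixV (L : List ℕ) : Subgroup OSix where
  carrier := {g | ∀ n ∈ L, act g (vecN n) = vecN n}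
  one_mem' := fun n _ => act_one _
  mul_mem' := fun ha hb n hn => by rw [act_mul, hb n hn, ha n hn]
  inv_mem' := fun ha n hn => act_inv_eq (ha n hn)

/-- a level -/
abbrev VLvl : Type := ℕ × List ℕ × List (ℕ × ℕ × ℕ)

/-- the orbit of a level -/
def vpts (L : VLvl) : List ℕ := L.1 :: L.2.2.map (·.1)

/-- the columns of a generator -/
def colsX (k : ℕ) : List ℕ := (extraGens.getD k ([], [])).2

/-- the check of a level -/
def VOK (prev : List ℕ) (L : VLvl) : Prop :=
  (vpts L).Nodup ∧ (∀ n ∈ vpts L, n < 64) ∧ (∀ k ∈ L.2.1, k < extraGens.length) ∧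
    (∀ n ∈ prev, n < 64) ∧ (∀ k ∈ L.2.1, ∀ n ∈ prev, mvN (colsX k) n = n) ∧
    ∀ j : Fin L.2.2.length, (L.2.2.getD j (0, 0, 0)).2.1 ≤ (j : ℕ) ∧
      (L.2.2.getD j (0, 0, 0)).2.2 < L.2.1.length ∧
      mvN (colsX (L.2.1.getD (L.2.2.getD j (0, 0, 0)).2.2 0))
          ((vpts L).getD (L.2.2.getD j (0, 0, 0)).2.1 0) = (L.2.2.getD j (0, 0, 0)).1

instance (prev : List ℕ) (L : VLvl) : Decidable (VOK prev L) := by
  unfold VOK
  infer_instance

theorem reach {R : Subgroup OSix}
    (hR : ∀ k, k < extraGens.length → ∃ g ∈ R, ∀ n, n < 64 → act g (vecN n) = vecN (mvN (colsX k) n))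
    {prev : List ℕ} {L : VLvl} (h : VOK prev L) :
    ∀ j, ∀ hj : j < (vpts L).length, ∃ g ∈ R ⊓ fixV prev, act g (vecN L.1) = vecN ((vpts L)[j]) := by
  obtain ⟨hnd, hlt, hk, hplt, hfix, hstep⟩ := h
  intro j
  induction j using Nat.strong_induction_on with
  | _ j ih =>
    intro hj
    rcases j with _ | j
    · exact ⟨1, one_mem _, by rw [act_one]; rfl⟩
    · have hj' : j < L.2.2.length := by simpa [vpts] using hj
      obtain ⟨hpar, hgi, he⟩ := hstep ⟨j, hj'⟩
      simp only at hpar hgi he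
      have hkm : L.2.1.getD (L.2.2.getD j (0, 0, 0)).2.2 0 ∈ L.2.1 := by
        rw [List.getD_eq_getElem _ _ hgi]; exact List.getElem_mem _
      obtain ⟨g, hg, hgp⟩ := ih (L.2.2.getD j (0, 0, 0)).2.1 (by omega) (by omega)
      obtain ⟨t, ht, htn⟩ := hR _ (hk _ hkm)
      refine ⟨t * g, mul_mem ⟨ht, fun n hn => ?_⟩ hg, ?_⟩
      · rw [htn n (hplt n hn), hfix _ hkm n hn]
      · rw [act_mul, hgp, htn _ (hlt _ (List.getElem_mem _))]
        rw [List.getD_eq_getElem (vpts L) 0
          (by omega : (L.2.2.getD j (0, 0, 0)).2.1 < (vpts L).length)] at he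
        rw [he, List.getD_eq_getElem _ _ hj']
        simp [vpts]

theorem orbit_mul {R : Subgroup OSix}
    (hR : ∀ k, k < extraGens.length → ∃ g ∈ R, ∀ n, n < 64 → act g (vecN n) = vecN (mvN (colsX k) n))
    {prev : List ℕ} {L : VLvl} (h : VOK prev L) :
    (vpts L).length * Nat.card (R ⊓ fixV (L.1 :: prev) : Subgroup OSix) ≤
      Nat.card (R ⊓ fixV prev : Subgroup OSix) := by
  choose t ht htp using fun j : Fin (vpts L).length => reach hR h j j.2
  let f : Fin (vpts L).length × (R ⊓ fixV (L.1 :: prev) : Subgroup OSix) →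
      (R ⊓ fixV prev : Subgroup OSix) :=
    fun z => ⟨t z.1 * z.2, mul_mem (ht z.1) ⟨z.2.2.1, fun n hn => z.2.2.2 n (List.mem_cons_of_mem _ hn)⟩⟩
  have hf : Function.Injective f := by
    rintro ⟨a, x⟩ ⟨b, y⟩ e
    have e1 : t a * (x : OSix) = t b * y := congrArg Subtype.val e
    have e2 := congrArg (fun g => act g (vecN L.1)) e1
    simp only [act_mul, x.2.2 _ (List.mem_cons_self ..), y.2.2 _ (List.mem_cons_self ..), htp] at e2
    have e3 : (⟨_, h.2.1 _ (List.getElem_mem a.2)⟩ : Fin 64) = ⟨_, h.2.1 _ (List.getElem_mem b.2)⟩ :=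
      vecN_bijective.1 e2
    obtain rfl := Fin.ext (h.1.getElem_inj_iff.1 (Fin.mk.inj e3))
    exact Prod.ext rfl (Subtype.ext (mul_left_cancel e1))
  have := Nat.card_le_card_of_injective f hf
  rwa [Nat.card_prod, Nat.card_fin] at this

/-- the levels are valid one after the other -/
def VChain : List ℕ → List VLvl → Prop
  | _, [] => True
  | prev, L :: rest => VOK prev L ∧ VChain (L.1 :: prev) rest

/-- the product of the orbit lengths -/
def vprod : List VLvl → ℕ
  | [] => 1
  | L :: rest => (vpts L).length * vprod rest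

theorem lower {R : Subgroup OSix}
    (hR : ∀ k, k < extraGens.length → ∃ g ∈ R, ∀ n, n < 64 → act g (vecN n) = vecN (mvN (colsX k) n)) :
    ∀ (rest : List VLvl) (prev : List ℕ), VChain prev rest →
      vprod rest ≤ Nat.card (R ⊓ fixV prev : Subgroup OSix)
  | [], prev, _ => Nat.card_pos
  | L :: rest, prev, h => by
    have h2 := lower hR rest (L.1 :: prev) h.2
    exact (Nat.mul_le_mul_left _ h2).trans (orbit_mul hR h.1)

/-- the base points before a level -/
def prevOf (i : ℕ) : List ℕ := ((vecChain.take i).map (·.1)).reverse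

theorem levels_ok : ∀ i : Fin vecChain.length, VOK (prevOf i) (vecChain.getD i (0, [], [])) := by
  decide +kernel

theorem vecChain_ok : VChain [] vecChain :=
  ⟨levels_ok ⟨0, by decide⟩, levels_ok ⟨1, by decide⟩, levels_ok ⟨2, by decide⟩,
    levels_ok ⟨3, by decide⟩, levels_ok ⟨4, by decide⟩, levels_ok ⟨5, by decide⟩, trivial⟩

theorem vecChain_prod : vprod vecChain = 51840 := by decide +kernel

/-- A subgroup containing the listed matrices is everything. -/
theorem eq_top {R : Subgroup OSix}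
    (hR : ∀ k, k < extraGens.length → ∃ g ∈ R, ∀ n, n < 64 → act g (vecN n) = vecN (mvN (colsX k) n)) :
    R = ⊤ := by
  have h := lower hR vecChain [] vecChain_ok
  rw [vecChain_prod] at h
  have h2 := Subgroup.card_le_of_le (inf_le_left : R ⊓ fixV [] ≤ R)
  haveI : Finite OSix := Nat.finite_of_card_ne_zero (by rw [card_OSix]; norm_num)
  refine Subgroup.eq_top_of_card_eq R (le_antisymm (Subgroup.card_le_card_group R) ?_)
  rw [card_OSix]
  exact h.trans h2

/-- the singular vectors -/
abbrev Sing : Type := {v : Vec // v ≠ 0 ∧ qSix v = 0}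

theorem sing_codes : ∀ n : Fin 64, (∀ i, vecN n i = 0) ∨ qSix (vecN n) ≠ 0 ∨
    (n : ℕ) ∈ vpts (1, [0, 1], (vecChain.getD 0 (0, [], [])).2.2) := by decide +kernel

theorem card_sing : (vpts (vecChain.getD 0 (0, [], []))).length = 27 := by decide +kernel

theorem sing_of_orbit : ∀ n ∈ vpts (vecChain.getD 0 (0, [], [])),
    n < 64 ∧ qSix (vecN n) = 0 ∧ ¬ ∀ i, vecN n i = 0 := by decide +kernel

theorem unit_sum : ∀ k : Fin 6, (∀ r, (((unitSum.getD k []).map vecN).sum) r = (Pi.single (ixOf k) 1 : Vec) r) ∧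
    ∀ n ∈ unitSum.getD k [], n < 64 ∧ qSix (vecN n) = 0 ∧ ¬ ∀ i, vecN n i = 0 := by decide +kernel

theorem ixOf_surj : ∀ i : Ix, ∃ k : Fin 6, ixOf k = i := by decide +kernel

theorem eq_one_of_fix {g : OSix} (hg : ∀ v : Sing, act g v = v) : g = 1 := by
  refine Subtype.ext (Units.ext (Matrix.ext fun r c => ?_))
  obtain ⟨k, rfl⟩ := ixOf_surj c
  obtain ⟨hs, hm⟩ := unit_sum k
  have key : ∀ l : List ℕ, (∀ n ∈ l, n < 64 ∧ qSix (vecN n) = 0 ∧ ¬ ∀ i, vecN n i = 0) →
      act g (l.map vecN).sum = (l.map vecN).sum := by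
    intro l
    induction l with
    | nil => intro _; exact act_zero g
    | cons n l ih =>
      intro hl
      rw [List.map_cons, List.sum_cons, act_add, ih fun m hm => hl m (List.mem_cons_of_mem _ hm)]
      obtain ⟨-, h1, h2⟩ := hl n (List.mem_cons_self ..)
      rw [hg ⟨vecN n, fun e => h2 fun i => congrFun e i, h1⟩]
  have h := key _ hm
  rw [funext hs] at h
  have := congrFun h r
  simp only [act, Matrix.mulVec_single_one] at this
  simpa [Matrix.one_apply, Pi.single_apply] using this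

/-- A normal subgroup of two-power order is trivial. -/
theorem eq_bot_of_two
    (hall : ∀ k, k < extraGens.length →
      ∃ g ∈ (⊤ : Subgroup OSix), ∀ n, n < 64 → act g (vecN n) = vecN (mvN (colsX k) n))
    {R : Subgroup OSix} [R.Normal] (h2 : IsPGroup 2 R) : R = ⊥ := by
  classical
  haveI : Finite OSix := Nat.finite_of_card_ne_zero (by rw [card_OSix]; norm_num)
  letI : MulAction R Sing :=
    { smul := fun g v => ⟨act g v, fun e => v.2.1 (by
          have := congrArg (act (g : OSix)⁻¹) e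
          rwa [act_zero, ← act_mul, inv_mul_cancel, act_one] at this),
        (act_q _ _).trans v.2.2⟩
      one_smul := fun v => Subtype.ext (act_one _)
      mul_smul := fun g h v => Subtype.ext (act_mul _ _ _) }
  obtain ⟨L, rest, hL⟩ : ∃ L rest, vecChain = L :: rest := ⟨_, _, rfl⟩
  have hL0 : vecChain.getD 0 (0, [], []) = L := by rw [hL]; rfl
  have hv := vecChain_ok
  rw [hL] at hv
  have hr := reach hall hv.1
  have hbase := sing_of_orbit L.1 (by rw [hL0]; exact List.mem_cons_self ..)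
  obtain ⟨v0, hv0⟩ : ∃ v0 : Sing, (v0 : Vec) = vecN L.1 :=
    ⟨⟨_, fun e => hbase.2.2 fun i => congrFun e i, hbase.2.1⟩, rfl⟩
  have hmem : ∀ v : Sing, ∃ j, ∃ hj : j < (vpts L).length, vecN ((vpts L)[j]) = v := by
    intro v
    obtain ⟨n, hn, he⟩ := exists_code (v : Vec)
    rcases sing_codes ⟨n, hn⟩ with h | h | h
    · exact absurd (funext h : vecN n = 0) (he ▸ v.2.1)
    · exact absurd (he ▸ v.2.2) h
    · have h' : n ∈ vpts L := by
        rw [← hL0]; exact h
      obtain ⟨j, hj, rfl⟩ := List.getElem_of_mem h'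
      exact ⟨j, hj, he⟩
  have hcard : Nat.card Sing = 27 := by
    have hb : ∀ j : Fin (vpts L).length, ((vpts L)[(j : ℕ)]) < 64 ∧ qSix (vecN (vpts L)[(j : ℕ)]) = 0 ∧
        ¬ ∀ i, vecN (vpts L)[(j : ℕ)] i = 0 :=
      fun j => sing_of_orbit _ (by rw [hL0]; exact List.getElem_mem j.2)
    let e : Fin (vpts L).length → Sing := fun j =>
      ⟨vecN (vpts L)[(j : ℕ)], fun e => (hb j).2.2 fun i => congrFun e i, (hb j).2.1⟩
    have he : Function.Bijective e := by
      refine ⟨fun a b h => ?_, fun v => ?_⟩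
      · have := vecN_bijective.1 (a₁ := ⟨_, (hb a).1⟩) (a₂ := ⟨_, (hb b).1⟩) (congrArg Subtype.val h)
        exact Fin.ext (hv.1.1.getElem_inj_iff.1 (Fin.mk.inj this))
      · obtain ⟨j, hj, hje⟩ := hmem v
        exact ⟨⟨j, hj⟩, Subtype.ext hje⟩
    rw [← Nat.card_eq_of_bijective e he, Nat.card_fin]
    rw [← card_sing, hL0]
  obtain ⟨w, hw⟩ := h2.nonempty_fixed_point_of_prime_not_dvd_card (α := Sing) (by rw [hcard]; norm_num)
  have hmove : ∀ v : Sing, ∃ h : OSix, act h w = v := by
    have hto : ∀ v : Sing, ∃ h : OSix, act h v0 = v := fun v => by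
      obtain ⟨j, hj, hje⟩ := hmem v
      obtain ⟨g, -, hg⟩ := hr j hj
      exact ⟨g, by rw [hv0, hg, hje]⟩
    obtain ⟨a, ha⟩ := hto w
    intro v
    obtain ⟨b, hb⟩ := hto v
    exact ⟨b * a⁻¹, by rw [act_mul, act_inv_eq ha, hb]⟩
  refine (Subgroup.eq_bot_iff_forall _).2 fun g hg => eq_one_of_fix fun v => ?_
  obtain ⟨h, hh⟩ := hmove v
  have hc := Subgroup.Normal.conj_mem inferInstance g hg h⁻¹
  rw [inv_inv] at hc
  have hfix : act (h⁻¹ * g * h) w = w := congrArg Subtype.val (hw ⟨_, hc⟩)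
  rw [act_mul, act_mul] at hfix
  rw [← hh]
  have := congrArg (act h) hfix
  rwa [← act_mul, mul_inv_cancel, act_one] at this

end Cfsg.Agent.H50.M22Outer.EllMat
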