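import Cfsg.Agent.H16.CertArr

/-! Classes of the points fixed by the symmetry (3 for the others). -/

set_option autoImplicit false
set_option maxRecDepth 100000

namespace Cfsg.Agent.H50.M22Outer

open Cfsg.Agent.H16

local notation "L" => PArr.leaf
local notation "N" => PArr.node

/-- the class of a point -/
def labArr : PArr :=
(N (N (N (N (N (L 0xfffffdcfffbfffdffcffffeffffffffffffeff7ffffffffffffbff3)
 (L 0xbfffffd7ffffffbffffffdffffff3fffffffeffffffffffffffe7c9))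
 (N (L 0xbf7fffff3fffffffffffffffffff7fffffffffffffffffffbffff7f)
 (L 0x30ffffbfffdffebfffffffffffff3ffbefffffffffff3ffffefffff)))
 (N (N (L 0xffffdfefc77feffffffffffffdffffcfffffffcffffd7fffffcfcff)
 (L 0xffffff7ffcffffffffffffffffff7fffffffefffeffffdfffffffff))
 (N (L 0xfff7ffdffbfffffff3dfff3ffffffdfffff3fffffffffffcffff8fb)
 (L 0x2cfffffffffbfefffe3fff7ffcffffffffffffffffbfffdffffffdf))))
 (N (N (N (L 0xcee4ffbffdffffffffbfffdffffffffffffdfffffff3ffff3ff7fcf)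
 (L 0xcfffff7fffffffafffefffffcfffffff7fffffffffffff7fffdfffb))
 (N (L 0xbfffffffff3fffdfffffffffefffffffffffffffffffffffbfffcff)
 (L 0x3cfffffffffffff3ffffffcffffffff7bfffffffff7fffffffcffff)))
 (N (N (L 0xcd7bfc0fcffff5ffffffffffffffffffffffffbfffff3fffffffbcf)
 (L 0x2ffefffffcffffbfffffffdff3fff2ffffffffffffffffff3ffcff9))
 (N (L 0xbffffffbff3fffcffefffdfffeffbffffffffcffefffffffffdffff)
 (L 0x309f3b7ff037ffcffff7fcfffffffffbfffffffffffffffffffffff)))))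
 (N (N (N (N (L 0xfef7f7ffffcfffffcc3fffffff7f73fffffffff37ffffffffffff7f)
 (L 0xffffff7fffffffbffffff1fff7bfffffffffffffffffffeffffdbfd))
 (N (L 0xbffbffcfff3fff3ff7ffffffffffefffcfffffcff7ffffbf7ffffff)
 (L 0x1cefffb7fceffffffffffecfffcff2fffffffffffeffffdffffcfff)))
 (N (N (L 0xcd7ffffffffffefffffffffffffffff3ffffffffffff3ffffbff7bf)
 (L 0x3fff3ff33cfffcdfffffffcffffffff3fffffffffeffffef3ffffff))
 (N (L 0xffffffffffffebfff3dffdfffebffffffefcdffffffffffffffffff)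
 (L 0x2fbfffffffffffefff37ffffffffbfffffffffffffffcfefffffffc))))
 (N (N (N (L 0xffd5ff7fffffebffffbfd7fffffffffffdffffffffffffffffcfcf3)
 (L 0xcfdfff5ffcefffbfff7ffbfffffffff7cfffffffffffffffffff7f9))
 (N (L 0xbff7dfffffcfffffffbffffff6fffffffcffffeff3fffefff5fff8b)
 (L 0x3fff3dbfffdffff3fffbffffffffffffffffffffff7fffcffdcfffc)))
 (N (N (L 0xff7bffffffdff5fff3ffffffeffffffffcf6fffffff3fefffeff7ff)
 (L 0x3ffdbfffffffbfbfffffff3ffffffffffffffffffffffffffdffffb))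
 (N (L 0xb0ffffdffddffffffd7ffbffff3fffff5ffffffffffffffffcedf7b)
 (L 0x33ffbef7ff3ffffffffffffff7ffffffffeffffffffffffffffdfff))))))

end Cfsg.Agent.H50.M22Outer
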